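import Cfsg.Agent.Lib.KnownSimple.Sp6Lab.Data

set_option autoImplicit false
set_option maxRecDepth 100000

namespace Cfsg.Agent.Lib.KnownSimple.Sp6Lab

open Cfsg.Agent.Lib.KnownSimple.Lab Cfsg.Agent.Lib.KnownSimple.Sp6Lab Dat

theorem hES32c0_c0 : allI (fun i => lowOK D.T lN0 2 0 wES32 i) 0 240 = true := by decide +kernel
theorem hES32c0_u0 : ∀ i, i < 240 → (fun i => lowOK D.T lN0 2 0 wES32 i) i = true :=
  allI_join allI_start hES32c0_c0 rfl
theorem hES32c0 : ∀ i, i < 240 → (fun i => lowOK D.T lN0 2 0 wES32 i) i = true := hES32c0_u0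
theorem hES33c0_c0 : allI (fun i => lowOK D.T lN0 2 1 wES33 i) 0 240 = true := by decide +kernel
theorem hES33c0_u0 : ∀ i, i < 240 → (fun i => lowOK D.T lN0 2 1 wES33 i) i = true :=
  allI_join allI_start hES33c0_c0 rfl
theorem hES33c0 : ∀ i, i < 240 → (fun i => lowOK D.T lN0 2 1 wES33 i) i = true := hES33c0_u0
theorem hES34c0_c0 : allI (fun i => lowOK D.T lN0 2 0 wES34 i) 0 240 = true := by decide +kernel
theorem hES34c0_u0 : ∀ i, i < 240 → (fun i => lowOK D.T lN0 2 0 wES34 i) i = true :=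
  allI_join allI_start hES34c0_c0 rfl
theorem hES34c0 : ∀ i, i < 240 → (fun i => lowOK D.T lN0 2 0 wES34 i) i = true := hES34c0_u0
theorem hES35c0_c0 : allI (fun i => lowOK D.T lN0 2 0 wES35 i) 0 240 = true := by decide +kernel
theorem hES35c0_u0 : ∀ i, i < 240 → (fun i => lowOK D.T lN0 2 0 wES35 i) i = true :=
  allI_join allI_start hES35c0_c0 rfl
theorem hES35c0 : ∀ i, i < 240 → (fun i => lowOK D.T lN0 2 0 wES35 i) i = true := hES35c0_u0
theorem hES36c0_c0 : allI (fun i => lowOK D.T lN0 2 1 wES36 i) 0 240 = true := by decide +kernel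
theorem hES36c0_u0 : ∀ i, i < 240 → (fun i => lowOK D.T lN0 2 1 wES36 i) i = true :=
  allI_join allI_start hES36c0_c0 rfl
theorem hES36c0 : ∀ i, i < 240 → (fun i => lowOK D.T lN0 2 1 wES36 i) i = true := hES36c0_u0

end Cfsg.Agent.Lib.KnownSimple.Sp6Lab
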