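-- Generated: the letters of the symplectic group.
import Cfsg.Agent.Lib.KnownSimple.Sp6Lab.Final

set_option autoImplicit false
set_option maxRecDepth 100000

namespace Cfsg.Agent.Lib.KnownSimple.Sp6Lab

open Cfsg.Agent.Lib.KnownSimple.Lab Cfsg.Agent.Lib.KnownSimple.LabMat Cfsg.Agent.Lib.KnownSimple.LabField
open Cfsg.Agent.Lib.KnownSimple.LabSp Subgroup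

/-- The letters as products of transvections. -/
def LW (a : ℕ) : List ℕ := ([[1, 16, 21, 44, 51, 52], [2, 27, 51], [1, 16, 21, 33, 35, 45], [2, 25, 40]] : List (List ℕ)).getD a []

/-- The transvections as words. -/
def TW (c : ℕ) : List ℕ := ([[], [0, 3, 0, 3, 2, 1, 1, 2, 1, 0, 1, 0, 3, 2, 1, 1, 0, 3, 0, 1], [2, 1, 0, 3, 0, 3, 2, 3, 0, 1, 2, 1, 0, 1, 0, 3, 0, 1], [1, 0, 1, 0, 3, 2, 3, 2, 1, 2, 1, 0, 1, 2, 3, 2, 1, 2, 1, 1, 0, 1], [0, 1, 0, 1, 2, 1, 0, 3, 2, 3, 0, 3, 2, 3, 2, 1, 2, 1, 1, 0, 3], [0, 3, 2, 1, 2, 3, 2, 3, 0, 3, 2, 1, 0, 1, 2, 1, 2, 3], [0, 1, 0, 1, 2, 1, 0, 1, 1, 0, 3, 2, 1, 2, 1, 2, 3], [0, 1, 0, 3, 0, 3, 2, 3, 0, 1, 2, 1, 0, 1, 0, 3, 0, 1, 0], [0, 1, 2, 1, 1, 2, 3, 0, 3, 0, 1, 0, 3, 0, 1,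 1, 2, 3, 0, 1], [0, 1, 2, 1, 1, 2, 3, 2, 1, 2, 1, 1, 2, 1, 0, 1, 1, 0, 3, 0, 3], [0, 1, 0, 3, 0, 1, 1, 2, 3, 0, 1, 0, 1, 2, 1, 1, 2, 3, 0, 3], [1, 2, 1, 2, 1, 2, 3, 0, 1, 1, 0, 1, 0, 3, 2, 3, 2, 1], [0, 1, 0, 3, 0, 3, 2, 1, 1, 2, 1, 0, 1, 0, 3, 2, 1, 1, 0, 3], [0, 1, 2, 1, 2, 3, 2, 1, 2, 1, 1, 0, 1, 2, 3, 2, 3, 0, 1, 1], [0, 1, 0, 1, 0, 3, 2, 1, 2, 1, 2, 3, 0, 1, 1, 0, 1, 0], [1, 0, 1, 0, 3, 2, 1, 0, 3, 0, 3, 0, 1, 1, 0, 1, 0, 1, 1, 0], [0, 1, 2, 3, 2, 3, 0, 3, 2, 1, 1, 2, 1, 0, 3, 0, 3], [1, 0, 3, 2, 1, 2, 1, 2, 3, 0, 1, 0, 1, 2, 1, 0, 1], [2, 1, 0, 1, 1, 0, 3, 2, 1, 2, 1, 2, 3, 0, 1, 0, 1], [1, 1, 2, 1, 0, 3, 0, 1, 0, 1, 2, 1, 0, 3, 2, 3, 0, 3, 0, 3], [0, 1, 0, 3, 2, 1, 0, 3, 0, 3, 0, 1, 1, 0, 1, 0, 1,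 1, 0, 1], [1, 1, 0, 1, 0, 1, 1, 0, 3, 2, 1, 2, 1, 2, 1, 1, 2, 3, 2, 1], [0, 3, 2, 3, 0, 1, 2, 1, 0, 1, 0, 3, 0, 1, 2, 1, 0, 3], [0, 1, 0, 1, 1, 0, 3, 0, 3, 0, 1, 2, 1, 1, 2, 3, 2, 1], [1, 0, 3, 0, 3, 2, 1, 1, 2, 1, 0, 1, 0, 3, 2, 1, 1, 0, 3, 0], [0, 3, 2, 1, 2, 1, 0, 1, 2, 3, 0, 3, 2, 3, 2, 1, 2, 3], [0, 1, 2, 3, 2, 1, 0, 3, 2, 3, 0, 1, 1, 2, 3, 2, 1, 0, 3, 0, 3], [0, 1, 1, 0, 3, 2, 1, 2, 1, 2, 1, 1, 2, 3, 0, 1, 1, 0, 3, 0, 3], [0, 1, 1, 0, 3, 2, 1, 2, 1, 2, 3, 0, 1, 0, 1, 2, 1], [0, 3, 0, 1, 2, 1, 0, 3, 0, 1, 0, 1, 2, 1, 0, 3, 2, 3], [0, 3, 0, 3, 2, 3, 0, 1, 2, 1, 0, 1, 0, 3, 0, 1, 2, 1], [0, 3, 0, 1, 2, 1, 1, 2, 3, 0, 3, 2, 3, 2, 1, 0, 3], [0, 1, 0, 3, 0, 1, 0, 1, 2, 1, 0, 3, 2, 3, 0, 3, 0, 1, 0], [0, 1,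 0, 3, 2, 1, 1, 0, 3, 0, 1, 0, 3, 0, 3, 2, 1, 1, 2, 1], [1, 2, 1, 0, 3, 0, 1, 0, 1, 2, 1, 0, 3, 2, 3, 0, 3, 0], [1, 2, 3, 2, 3, 0, 3, 2, 1, 1, 2, 1, 0, 3, 0, 3, 0], [0, 1, 0, 1, 1, 0, 3, 2, 1, 2, 1, 2, 1, 1, 2, 3, 2, 3], [0, 1, 0, 1, 1, 0, 3, 2, 1, 2, 1, 2, 1, 1, 2, 3, 0, 1, 1, 0, 3], [1, 0, 1, 1, 0, 3, 0, 3, 0, 1, 2, 1, 1, 2, 3, 2, 1, 0], [0, 1, 1, 0, 1, 2, 1, 0, 1, 0, 3, 2, 1, 2, 1, 2, 3], [1, 0, 1, 2, 1, 0, 1, 1, 0, 3, 2, 1, 2, 1, 2, 3, 0], [1, 0, 1, 1, 2, 1, 2, 3, 2, 1, 0, 1, 2, 1, 2, 3, 2, 3, 0, 1, 0, 1], [0, 1, 1, 2, 1, 1, 0, 1, 1, 0, 3, 0, 3, 2, 3, 2, 1, 0, 1, 0, 3, 0, 1], [0, 1, 0, 3, 0, 1, 0, 1, 2, 3, 2, 1, 2, 1, 2, 1, 1, 2, 3, 2, 1], [2, 1, 2, 3, 2, 1, 2, 1, 1, 0, 1, 2, 3, 2, 3, 0, 1, 1, 0, 1], [0,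 3, 2, 1, 1, 2, 1, 0, 1, 0, 3, 2, 1, 1, 0, 3, 0, 1, 0, 3], [0, 3, 0, 3, 0, 1, 2, 1, 1, 2, 3, 0, 3, 2, 3, 2, 1], [1, 1, 0, 3, 2, 1, 2, 3, 2, 3, 0, 3, 2, 1, 0, 1, 2, 1, 2, 1], [1, 0, 3, 0, 1, 1, 2, 3, 0, 1, 0, 1, 2, 1, 1, 2, 3, 0, 3, 0], [0, 3, 0, 1, 0, 1, 1, 0, 3, 2, 1, 2, 1, 2, 1, 1, 2, 3, 0], [0, 3, 0, 1, 1, 2, 3, 0, 1, 0, 1, 2, 1, 1, 2, 3, 0, 3, 0, 1], [0, 1, 2, 1, 0, 1, 1, 0, 3, 2, 1, 2, 1, 2, 3, 0, 1], [0, 3, 0, 1, 2, 1, 0, 3, 0, 1, 1, 0, 1, 2, 1, 0, 1, 1, 2, 3], [1, 2, 1, 2, 3, 2, 1, 2, 1, 1, 0, 1, 2, 3, 2, 3, 0, 1, 1, 0], [0, 3, 0, 1, 2, 3, 2, 3, 0, 3, 2, 1, 1, 2, 1, 0, 3], [1, 2, 1, 1, 2, 3, 0, 3, 0, 1, 0, 3, 0, 1, 1, 2, 3, 0, 1, 0], [0, 1, 1, 0, 1, 2, 1, 2, 3, 2, 1, 2, 1, 1, 0, 1, 2, 3, 2, 3], [2,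 1, 0, 3, 0, 1, 0, 1, 2, 1, 0, 3, 2, 3, 0, 3, 0, 1], [0, 3, 0, 1, 0, 3, 0, 1, 1, 2, 3, 0, 1, 0, 1, 2, 1, 1, 2, 3], [0, 1, 2, 1, 1, 2, 3, 0, 3, 2, 3, 2, 1, 0, 3, 0, 3], [0, 1, 2, 1, 0, 3, 0, 1, 0, 1, 2, 1, 0, 3, 2, 3, 0, 3], [0, 1, 0, 1, 0, 3, 2, 1, 0, 3, 0, 3, 0, 1, 1, 0, 1, 0, 1, 1], [0, 1, 1, 0, 3, 0, 3, 0, 1, 2, 1, 1, 2, 3, 2, 1, 2, 1, 1, 2, 1], [0, 3, 2, 1, 1, 0, 1, 2, 1, 0, 1, 1, 0, 3, 0, 1, 2, 1, 0, 3]] : List (List ℕ)).getD c []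

theorem c_LW : ∀ a < 4, (∀ c ∈ LW a, c < 64) ∧ wordC add2 mul2 6 tcodes (LW a) = Ls.getD a [] := by decide +kernel

theorem c_inv : ∀ a < 2, mulC add2 mul2 6 (Ls.getD (a + 2) []) (Ls.getD a []) = idC 6 := by decide +kernel

theorem c_TW : ∀ c < 64, (∀ a ∈ TW c, a < 4) ∧ wordC add2 mul2 6 Ls (TW c) = tcode c := by decide +kernel

/-- The multiplier of the group. -/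
theorem result {F : Type*} [Field F] [Fintype F] (hF : Fintype.card F = 2) :
    Cfsg.HasSchurMultiplier (Cfsg.PSp 3 F) (Multiplicative (ZMod 2)) := by
  classical
  obtain ⟨R⟩ := exists_rep2 hF
  set γ : ℕ → Matrix.symplecticGroup (Fin 3) F := spLetter R.φ LW with hγdef
  have hγ : ∀ a < 4, spHom F (γ a) = toM R.φ 6 (Ls.getD a []) := by
    intro a ha
    obtain ⟨h1, h2⟩ := c_LW a ha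
    rw [hγdef, spLetter_val R h1, h2]
  have hinv : ∀ a < 2, γ (a + 2) = (γ a)⁻¹ := by
    intro a ha
    apply eq_inv_of_mul_eq_one_left
    apply spHom_inj
    rw [map_mul, map_one, hγ _ (by omega), hγ _ (by omega), ← toM_mulC R.hadd R.hmul R.h0, c_inv a ha,
      toM_idC R.h0 R.h1]
  have hclo := sp_closure R hγ TW c_TW
  refine main (pspLetters γ) ?_ (psp_closure hclo) ?_ (card_psp R hF)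
  · intro a ha
    simp only [pspLetters]
    rw [hinv a ha]
    rfl
  · intro w hw h
    have h1 := wval_toM (spHom F) R.hadd R.hmul R.h0 R.h1 hγ w hw
    rw [chk_eq R w hw h, ← map_one (spHom F)] at h1
    rw [wval_psp, spHom_inj h1]
    rfl

end Cfsg.Agent.Lib.KnownSimple.Sp6Lab
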